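import Mathlib
import Cfsg.Prelude.Def_LocalStructure
import Cfsg.Agent.Lib.LAE.CosetGraph
import Cfsg.Agent.Lib.LAE.Gaschutz

/-!
The subgroups `V_δ^{(n)}` of the amalgam method.
-/

set_option autoImplicit false
set_option linter.unusedSectionVars false

namespace CfsgLib.LocStr

open Subgroup MulAction Cfsg CfsgLib.LAE
open scoped commutatorElement

variable {X : Type*} [Group X] {p : ℕ} {M₁ M₂ : Subgroup X}

theorem coset_dist_smul_le (hgen : M₁ ⊔ M₂ = ⊤) (g : X) (a b : CosetVertex M₁ M₂) :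
    (cosetGraph M₁ M₂).dist (g • a) (g • b) ≤ (cosetGraph M₁ M₂).dist a b := by
  obtain ⟨w, hw⟩ := (coset_connected hgen).exists_walk_length_eq_dist a b
  let f : cosetGraph M₁ M₂ →g cosetGraph M₁ M₂ := ⟨fun v => g • v, fun h => coset_adj_smul h g⟩
  have := SimpleGraph.dist_le (w.map f)
  rwa [SimpleGraph.Walk.length_map, hw] at this

theorem vertexZ_le_vIter {n : ℕ} {δ μ : CosetVertex M₁ M₂} (h : (cosetGraph M₁ M₂).dist δ μ ≤ n) :
    vertexZ p μ ≤ vertexVIter p M₁ M₂ n δ :=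
  le_iSup (fun ν : {ν : CosetVertex M₁ M₂ // (cosetGraph M₁ M₂).dist δ ν ≤ n} =>
    vertexZ p (ν : CosetVertex M₁ M₂)) ⟨μ, h⟩

theorem vIter_le_iff {n : ℕ} {δ : CosetVertex M₁ M₂} {K : Subgroup X} :
    vertexVIter p M₁ M₂ n δ ≤ K ↔ ∀ μ, (cosetGraph M₁ M₂).dist δ μ ≤ n → vertexZ p μ ≤ K := by
  simp only [vertexVIter, iSup_le_iff, Subtype.forall]

theorem conjS_vertexZ (g : X) (μ : CosetVertex M₁ M₂) :
    conjS g (vertexZ p μ) = vertexZ p (g • μ) := by
  rw [vertexZ, vertexZ, stabilizer_smul_eq, conjS_sylowCenterClosure]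

theorem conjS_vIter_le (hgen : M₁ ⊔ M₂ = ⊤) (g : X) (n : ℕ) (δ : CosetVertex M₁ M₂) :
    conjS g (vertexVIter p M₁ M₂ n δ) ≤ vertexVIter p M₁ M₂ n (g • δ) := by
  rw [conjS_le_iff, vIter_le_iff]
  intro μ hμ
  rw [← conjS_le_iff, conjS_vertexZ]
  exact vertexZ_le_vIter ((coset_dist_smul_le hgen g δ μ).trans hμ)

theorem conjS_vIter (hgen : M₁ ⊔ M₂ = ⊤) (g : X) (n : ℕ) (δ : CosetVertex M₁ M₂) :
    conjS g (vertexVIter p M₁ M₂ n δ) = vertexVIter p M₁ M₂ n (g • δ) := by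
  refine le_antisymm (conjS_vIter_le hgen g n δ) ?_
  rw [le_conjS_iff]
  simpa using conjS_vIter_le (p := p) hgen g⁻¹ n (g • δ)

theorem le_normalizer_vIter (hgen : M₁ ⊔ M₂ = ⊤) (n : ℕ) (δ : CosetVertex M₁ M₂) :
    stabilizer X δ ≤ normalizer (vertexVIter p M₁ M₂ n δ : Set X) := fun g hg => by
  rw [mem_normalizer_iff_conjS, conjS_vIter hgen, mem_stabilizer_iff.1 hg]

theorem vIter_le_succ (hgen : M₁ ⊔ M₂ = ⊤) {n : ℕ} {δ μ : CosetVertex M₁ M₂}
    (h : (cosetGraph M₁ M₂).Adj δ μ) : vertexVIter p M₁ M₂ n μ ≤ vertexVIter p M₁ M₂ (n + 1) δ := by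
  rw [vIter_le_iff]
  intro ν hν
  have := (coset_connected hgen).dist_triangle (u := δ) (v := μ) (w := ν)
  rw [SimpleGraph.dist_eq_one_iff_adj.2 h] at this
  exact vertexZ_le_vIter (by omega)

theorem vIter_succ_le (hgen : M₁ ⊔ M₂ = ⊤) {n : ℕ} {δ : CosetVertex M₁ M₂} {K : Subgroup X}
    (h0 : vertexZ p δ ≤ K) (h : ∀ μ, (cosetGraph M₁ M₂).Adj δ μ → vertexVIter p M₁ M₂ n μ ≤ K) :
    vertexVIter p M₁ M₂ (n + 1) δ ≤ K := by
  rw [vIter_le_iff]
  intro ν hν
  by_cases e : δ = ν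
  · exact e ▸ h0
  · obtain ⟨w, hw, hd⟩ := exists_adj_dist_lt (coset_connected hgen) e
    exact (vertexZ_le_vIter (by omega)).trans (h w hw)

variable [Fact p.Prime]

theorem speAmal_normalizer_le (h : IsSpeAmalgamPair p M₁ M₂) {δ μ : CosetVertex M₁ M₂}
    (hμ : (cosetGraph M₁ M₂).Adj δ μ) {T : Subgroup X}
    (hT : IsSylowIn p T (stabilizer X δ ⊓ stabilizer X μ)) :
    stabilizer X δ ⊓ normalizer (T : Set X) ≤ stabilizer X μ :=
  (edge_induction (P := fun A B : Subgroup X => ∀ R, IsSylowIn p R (A ⊓ B) →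
      A ⊓ normalizer (R : Set X) ≤ B ∧ B ⊓ normalizer (R : Set X) ≤ A) (by
      intro R hR
      obtain ⟨R, rfl⟩ := hR.exists_sylow
      obtain ⟨e1, e2⟩ := h.2.1 R
      exact ⟨e2.trans inf_le_right, e1.ge.trans inf_le_left⟩)
    (fun A B hAB R hR => (hAB R (by rwa [inf_comm])).symm) (by
      intro A B g hAB R hR
      have h3 := hR.conj g⁻¹
      rw [← conjS_inf, conjS_inv_conjS] at h3
      obtain ⟨h4, h5⟩ := hAB _ h3
      rw [← conjS_le_conjS_iff (g := g), conjS_inf, conjS_normalizer, conjS_conjS_inv] at h4 h5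
      exact ⟨h4, h5⟩) hμ T hT).1

/-- `G_δ = O^p(L_δ) G_{δ, μ}`. -/
theorem speAmal_stabilizer_le (h : IsSpeAmalgamPair p M₁ M₂) {δ μ : CosetVertex M₁ M₂}
    (hμ : (cosetGraph M₁ M₂).Adj δ μ) {K : Subgroup X}
    (h1 : pResOf p (pElementClosure p (stabilizer X δ)) ≤ K)
    (h2 : stabilizer X δ ⊓ stabilizer X μ ≤ K) : stabilizer X δ ≤ K := by
  have hP := IsCharPAmalgamPair.charPPair h.1 hμ
  have := hP.finite_left
  have := finite_of_le (pElementClosure_le (p := p) (stabilizer X δ))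
  obtain ⟨T, hT⟩ := exists_isSylowIn p (stabilizer X δ ⊓ stabilizer X μ)
  have h3 := (hP.sylow T hT).1.isSylowIn_pElementClosure
  rw [← h3.frattini_sup (pElementClosure_le _) (le_normalizer_pElementClosure _)]
  exact sup_le (h3.le_of_pResOf_le h1 (hT.le.trans h2))
    ((le_inf inf_le_left (speAmal_normalizer_le h hμ hT)).trans h2)

theorem vertexZ_ne_bot (h : IsCharPAmalgamPair p M₁ M₂) (δ : CosetVertex M₁ M₂) :
    vertexZ p δ ≠ ⊥ := by
  obtain ⟨μ, hμ⟩ := exists_adj δ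
  have hP := IsCharPAmalgamPair.charPPair h hμ
  have := hP.finite_left
  obtain ⟨S, hS, -⟩ := hP.exists_sylow
  have := finite_of_le hS.le
  exact fun h0 => omegaZ_ne_bot hS.isPGroup (hS.ne_bot hP.dvd_left)
    (eq_bot_iff.2 (h0 ▸ hS.omegaZ_le_sylowCenterClosure))

/-- `V_μ^{(n)}` is not normalized by `O^p(L_δ)` when `V_δ^{(n + 1)} ≤ Q_δ`. -/
theorem not_le_normalizer_vIter (h : IsSpeAmalgamPair p M₁ M₂) {δ μ : CosetVertex M₁ M₂}
    (hμ : (cosetGraph M₁ M₂).Adj δ μ) {n : ℕ} (hV : vertexVIter p M₁ M₂ (n + 1) δ ≤ vertexQ p δ) :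
    ¬ ⁅vertexVIter p M₁ M₂ n μ, pResOf p (pElementClosure p (stabilizer X δ))⁆ ≤
      vertexVIter p M₁ M₂ n μ := fun hle => by
  have hgen := h.1.1.1
  have hP := IsCharPAmalgamPair.charPPair h.1 hμ
  have h0 := hP.faithful.eq_bot_of_normalizer
    (((vIter_le_succ hgen hμ).trans hV).trans (le_inf (pCoreOf_le _) hP.pCoreOf_le))
    (speAmal_stabilizer_le h hμ (le_normalizer_iff_commutator_le_left.2 hle)
      (inf_le_right.trans (le_normalizer_vIter hgen n μ))) (le_normalizer_vIter hgen n μ)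
  exact vertexZ_ne_bot h.1 μ (eq_bot_iff.2 (h0 ▸ vertexZ_le_vIter (by simp)))

theorem le_of_le_sup_commutator {V W Q : Subgroup X} [Finite Q] (hQ : IsPGroup p Q) (hV : V ≤ Q)
    (hn : Q ≤ normalizer (V : Set X)) (hW : Q ≤ normalizer (W : Set X)) (h : V ≤ W ⊔ ⁅V, Q⁆) :
    V ≤ W := by
  have := finite_of_le hV
  obtain ⟨n, h0⟩ := exists_iterCommutator_eq_bot_of_isPGroup (hQ.to_le hV) hQ hn
  have key : ∀ k, V ≤ W ⊔ iterCommutator V Q k := fun k => by
    induction k with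
    | zero => exact le_sup_right
    | succ k ih =>
      refine h.trans (sup_le le_sup_left ((commutator_mono ih le_rfl).trans ?_))
      have h1 : Q ≤ normalizer ((W ⊔ iterCommutator V Q (k + 1) : Subgroup X) : Set X) :=
        le_normalizer_sup hW (normalizer_commutator_ge_right _ _)
      have h2 := (iterCommutator_le hn k).trans hV
      rw [commutator_le]
      intro x hx q hq
      obtain ⟨a, ha, b, hb, rfl⟩ := (mem_sup_iff_of_right_le_normalizer (h2.trans hW)).1 hx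
      have : ⁅a * b, q⁆ = a * ⁅b, q⁆ * (q * a⁻¹ * q⁻¹) := by
        simp only [commutatorElement_def]; group
      rw [this]
      exact mul_mem (mul_mem_sup ha (commutator_mem_commutator hb hq))
        (mem_sup_left (conj_mem_of_mem_normalizer (hW hq) (inv_mem ha)))
  simpa [h0] using key n

end CfsgLib.LocStr
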